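import Cfsg.Agent.H58.ExtField.OrthField
import Cfsg.Agent.H5.OmegaForms

/-!
# Overgroups of a three-dimensional orthogonal group over a cubic extension contain `Ω`

The counting of `H58` needs degree at least five only to exclude a scalar carried into the perp off the line; an
element scaling the singular vector and fixing its image excludes it in every odd degree.
-/

set_option autoImplicit false
set_option linter.unusedSectionVars false
set_option linter.unusedVariables false

namespace Cfsg.Agent.H1.OmegaNine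

open scoped Matrix
open QuadraticMap hiding sq
open Cfsg.Agent.H5
open Cfsg.Agent.H58.ExtField Cfsg.Agent.H58.ExtField.Orth

section Ctx

variable {F : Type*} [Field F] [Fintype F] {E : Type*} [Field E] [Fintype E] [Algebra F E]
variable {V : Type*} [AddCommGroup V] [Module F V] [Finite V] [Module E V] [IsScalarTower F E V]
variable {Q : QuadraticForm F V} {fB : V →ₗ[E] V →ₗ[E] E} {M : Subgroup (orth Q)}
variable (H : OCtx Q fB M)
include H

omit H in
/-- Inverses of shift scalars outside the base field are not shift scalars. -/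
theorem inv_notMem_shift (hr : (Module.finrank F E).Prime) (h2 : (2 : F) ≠ 0) {c : E} (hc : c ∈ shift F E)
    (hb : c ∉ base F E) : c⁻¹ ∉ shift F E := by
  intro hi
  have h2E : (2 : E) ≠ 0 := fun h => h2 ((algebraMap F E).injective (by rw [map_ofNat, h, map_zero]))
  obtain ⟨σ, hσ⟩ := exists_aut_ne_one (F := F) (E := E) hr
  obtain ⟨a, ha⟩ := mem_shift.1 hc σ
  obtain ⟨b, hb'⟩ := mem_shift.1 hi σ
  rw [Algebra.linearMap_apply] at ha hb'
  have ea : σ c = c + algebraMap F E a := by rw [ha]; ring
  have eb : σ c⁻¹ = c⁻¹ + algebraMap F E b := by rw [hb']; ring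
  have hc0 : c ≠ 0 := fun h => hb (h ▸ zero_mem _)
  have key : algebraMap F E a + algebraMap F E b * c * (c + algebraMap F E a) = 0 := by
    have h1 : σ c * σ c⁻¹ = 1 := by rw [← map_mul, mul_inv_cancel₀ hc0, map_one]
    rw [ea, eb] at h1
    field_simp at h1
    linear_combination h1
  have key' := congrArg σ key
  simp only [map_add, map_mul, map_zero, AlgEquiv.commutes, ea] at key'
  have h3 : (2 * algebraMap F E a) * (algebraMap F E b * (c + algebraMap F E a)) = 0 := by
    linear_combination key' - key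
  have ha0 : algebraMap F E a ≠ 0 := fun h => hb (ker_le_base hr hσ (by rw [ea, h, add_zero]))
  rcases mul_eq_zero.1 ((mul_eq_zero.1 h3).resolve_left (mul_ne_zero h2E ha0)) with h | h
  · rw [h, zero_mul, zero_mul, add_zero] at key
    exact ha0 key
  · exact hb ⟨-a, by rw [Algebra.linearMap_apply, map_neg]; linear_combination -h⟩

/-- In odd degree no element fixing a singular vector carries a scalar into its perp off the line. -/
theorem perpStays_odd (hno : ¬ commutator (orth Q) ≤ M) (h3 : Module.finrank E V = 3)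
    (hr : Odd (Module.finrank F E)) {v : V} (hv0 : v ≠ 0) (hv : fB v v = 0) : PerpStays M fB v := by
  intro g hg hgv c0 hperp
  by_contra hout
  obtain ⟨hK, hc0S, hc0B⟩ := H.lineK_eq_base hno hv0 hv hg hgv hperp hout
  have hc00 : c0 ≠ 0 := fun h => hc0B (h ▸ zero_mem _)
  obtain ⟨u0, hvu0, hu00, hgen⟩ := H.exists_perp_gen h3 hv0 hv
  set p := g.1 (c0 • v) with hp
  have hpp : fB p p ≠ 0 := by
    obtain ⟨e, l, he⟩ := hgen p hperp
    rw [he]
    simp only [map_add, map_smul, LinearMap.add_apply, LinearMap.smul_apply, smul_eq_mul, hvu0, H.fB_comm u0 v, hv,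
      mul_zero, add_zero, mul_ne_zero_iff]
    have he0 : e ≠ 0 := fun h => hout (mem_lineK.2 (Submodule.mem_span_singleton.2 ⟨l, by
      rw [← hp, he, h, zero_smul, zero_add]⟩))
    exact ⟨he0, he0, hu00⟩
  -- a scalar carried into the perp by the inverse
  let β : E →ₗ[F] E := (fB v).restrictScalars F ∘ₗ lineMap E v g
  set O := LinearMap.BilinForm.orthogonal (Algebra.traceForm F E) (LinearMap.range β) with hO
  have hOmem : ∀ {y : E}, y ∈ O → fB v ((g⁻¹).1 (y • v)) = 0 := fun {y} hy => eq_zero_of_trace (F := F) fun x => by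
    have h1 : Algebra.trace F E (fB v (g.1 (x • v)) * y) = 0 :=
      LinearMap.BilinForm.mem_orthogonal_iff.1 hy _ ⟨x, rfl⟩
    rw [H.htr] at h1 ⊢
    rw [← orth_polar g, orth_apply_inv_apply, polar_comm]
    exact h1
  obtain ⟨e1, he1, he1B⟩ : ∃ e ∈ O, e ∉ base F E := by
    by_contra h
    push Not at h
    have h1 := Submodule.finrank_mono (show O ≤ base F E from h)
    have h2 := LinearMap.BilinForm.finrank_orthogonal (traceForm_nondegenerate F E) (LinearMap.range β)
    rw [← hO] at h2
    have h4 := β.finrank_range_add_finrank_ker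
    have hb : base F E ≤ LinearMap.ker β := fun x hx => by
      obtain ⟨s, rfl⟩ := hx
      show fB v (g.1 (algebraMap F E s • v)) = 0
      rw [algebraMap_smul, LinearEquiv.map_smul, hgv, LinearMap.map_smul_of_tower, hv, smul_zero]
    have h5 := Submodule.finrank_lt_finrank_of_lt (SetLike.lt_iff_le_and_exists.2
      ⟨hb, c0, LinearMap.mem_ker.2 hperp, hc0B⟩)
    rw [H.finrank_base] at h1 h5
    omega
  -- made a square
  obtain ⟨τ, htO, htB⟩ : ∃ τ : E, τ * τ ∈ O ∧ τ * τ ∉ base F E := by
    by_cases hsq : IsSquare e1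
    · obtain ⟨τ, rfl⟩ := hsq
      exact ⟨τ, he1, he1B⟩
    obtain ⟨ν, hν⟩ := exists_not_isSquare H.two
    have hν0 : ν ≠ 0 := fun e => hν (e ▸ IsSquare.zero)
    have hν1 : algebraMap F E ν ≠ 0 := fun e => hν0 ((map_eq_zero _).1 e)
    have hν' : ¬ IsSquare (algebraMap F E ν) := fun h => hν (by
      have h1 := h.map (Algebra.norm F)
      rw [Algebra.norm_algebraMap] at h1
      obtain ⟨k, hk⟩ := hr
      rw [hk, pow_succ, pow_mul] at h1
      obtain ⟨w, hw⟩ := h1
      refine ⟨w / ν ^ k, ?_⟩
      field_simp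
      linear_combination hw)
    have he0 : e1 ≠ 0 := fun e => he1B (e ▸ zero_mem _)
    obtain ⟨τ, hτ⟩ : IsSquare (algebraMap F E ν * e1) := by
      rw [← sqc_eq_one_iff, sqc_mul hν1 he0, sqc_eq_neg_one_iff.2 hν', sqc_eq_neg_one_iff.2 hsq]
      exact Int.units_mul_self _
    refine ⟨τ, ?_, ?_⟩ <;> rw [← hτ, ← Algebra.smul_def]
    · exact O.smul_mem ν he1
    · intro h
      have := (base F E).smul_mem ν⁻¹ h
      rw [inv_smul_smul₀ hν0] at this
      exact he1B this
  have hτ : τ ≠ 0 := fun e => htB (by rw [e, mul_zero]; exact zero_mem _)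
  -- scaling `v`, fixing `p`
  obtain ⟨f0, hf0, hvf0⟩ := H.exists_partner hv0 hv
  have hvp : fB v p = 0 := hperp
  have hpv : fB p v = 0 := by rw [H.fB_comm, hvp]
  set f1 := f0 - (fB p f0 / fB p p) • p with hf1
  have hvf1 : fB v f1 = 1 := by rw [hf1, map_sub, map_smul, hvp, hvf0, smul_zero, sub_zero]
  have hpf1 : fB p f1 = 0 := by rw [hf1, map_sub, map_smul, smul_eq_mul, div_mul_cancel₀ _ hpp, sub_self]
  set f := f1 - ((2 : E)⁻¹ * fB f1 f1) • v with hf
  have hvf : fB v f = 1 := by rw [hf, map_sub, map_smul, hv, hvf1, smul_zero, sub_zero]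
  have hff : fB f f = 0 := by
    have := H.twoE
    simp only [hf, map_sub, map_smul, LinearMap.sub_apply, LinearMap.smul_apply, smul_eq_mul, hv, hvf1,
      H.fB_comm f1 v]
    field_simp
    ring
  have hfp : fB f p = 0 := by rw [H.fB_comm, hf, map_sub, map_smul, hpf1, hpv, smul_zero, sub_zero]
  obtain ⟨s, hs, sl, sP⟩ := H.exists_scale hv hff hvf hτ
  have hsp : s.1 p = p := by rw [sP p hvp, hfp, mul_zero, zero_smul, add_zero]
  have hsv : s.1 v = (τ * τ) • v := by
    rw [sP v hv, H.fB_comm f v, hvf, mul_one, sub_smul, one_smul]; abel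
  have hx : fB (c0 • v) (c0 • v) = 0 := by simp [map_smul, hv]
  have hk : (g⁻¹ * s * g).1 (c0 • v) = c0 • v := by
    rw [orth_mul_apply, orth_mul_apply, ← hp, hsp, hp, orth_inv_apply_apply]
  have hkv : (g⁻¹ * s * g).1 (c0⁻¹ • c0 • v) = (g⁻¹).1 ((τ * τ) • v) := by
    rw [inv_smul_smul₀ hc00, orth_mul_apply, orth_mul_apply, hgv, hsv]
  have h := H.perp_mem_line hno (smul_ne_zero hc00 hv0) hx (mul_mem (mul_mem (inv_mem hg) hs) hg) hk
    (inv_notMem_shift H.prime H.two hc0S hc0B)
    (by rw [hkv, map_smul fB, LinearMap.smul_apply, hOmem htO, smul_zero])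
  rw [mem_lineK, hkv, Submodule.span_singleton_smul_eq (Ne.isUnit hc00)] at h
  exact htB (H.base_of_inv hv0 hgv hK (mem_lineK.2 h))

/-- An element fixing `y` whose `r`-th power fixes only the line of `y`. -/
theorem exists_torus_small (h3 : Module.finrank E V = 3) (hr3 : 3 ≤ Module.finrank F E) {y : V} (hyy : fB y y ≠ 0) :
    ∃ t ∈ M, t.1 y = y ∧ ∀ z, (t ^ Module.finrank F E).1 z = z → z ∈ Submodule.span E {y} := by
  classical
  obtain ⟨e1, e2, hye1, hye2, h12, h1, h2, hspan⟩ := H.exists_frame h3 hyy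
  have he1y : fB e1 y = 0 := by rw [H.fB_comm, hye1]
  have he2y : fB e2 y = 0 := by rw [H.fB_comm, hye2]
  have h21 : fB e2 e1 = 0 := by rw [H.fB_comm, h12]
  set A := fB e1 e1 with hA
  set B := fB e2 e2 with hB
  set N := 2 * Module.finrank F E with hN
  set T : Polynomial E := Polynomial.Chebyshev.T E (N : ℤ) with hT
  -- a parameter avoiding the roots
  have hne : T - 1 ≠ 0 := by
    intro h
    haveI : NeZero (2 : E) := ⟨H.twoE⟩
    have hd : T.natDegree = N := by rw [hT, Polynomial.Chebyshev.natDegree_T]; simp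
    rw [sub_eq_zero.1 h, Polynomial.natDegree_one] at hd
    omega
  obtain ⟨lam, hden, hroot⟩ : ∃ lam : E, A + lam ^ 2 * B ≠ 0 ∧ T.eval (2 * A / (A + lam ^ 2 * B) - 1) ≠ 1 := by
    by_contra hall
    push Not at hall
    set S : Finset E := insert (-A / B) ((T - 1).roots.toFinset.image fun a => (2 * A / (a + 1) - A) / B)
    have hsub : (Finset.univ : Finset E) ⊆ S.biUnion fun s => (Polynomial.nthRoots 2 s).toFinset := by
      intro lam _
      refine Finset.mem_biUnion.2 ⟨lam ^ 2, ?_, by rw [Multiset.mem_toFinset, Polynomial.mem_nthRoots (by norm_num)]⟩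
      by_cases hden : A + lam ^ 2 * B = 0
      · refine Finset.mem_insert.2 (Or.inl ?_)
        field_simp
        linear_combination hden
      · refine Finset.mem_insert_of_mem (Finset.mem_image.2 ⟨2 * A / (A + lam ^ 2 * B) - 1, ?_, ?_⟩)
        · rw [Multiset.mem_toFinset, Polynomial.mem_roots hne]
          simp [hall lam hden]
        · rw [sub_add_cancel, div_div_cancel₀ (mul_ne_zero H.twoE h1), add_sub_cancel_left,
            mul_div_cancel_right₀ _ h2]
    have hroots : (T - 1).roots.toFinset.card ≤ N := by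
      refine (Multiset.toFinset_card_le _).trans ((Polynomial.card_roots' _).trans ?_)
      refine (Polynomial.natDegree_sub_le _ _).trans ?_
      haveI : NeZero (2 : E) := ⟨H.twoE⟩
      rw [hT, Polynomial.Chebyshev.natDegree_T, Polynomial.natDegree_one]
      simp
    have hS : S.card ≤ N + 1 :=
      (Finset.card_insert_le _ _).trans (Nat.add_le_add_right (Finset.card_image_le.trans hroots) 1)
    have hcard := (Finset.card_le_card hsub).trans (Finset.card_biUnion_le_card_mul _ _ 2 fun s _ =>
      (Multiset.toFinset_card_le _).trans (Polynomial.card_nthRoots 2 s))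
    rw [Finset.card_univ, ← Nat.card_eq_fintype_card, card_E F E] at hcard
    have hq : 3 ≤ Fintype.card F := by
      have h1' : 1 < Fintype.card F := Fintype.one_lt_card
      by_contra h
      refine H.two ?_
      have h2' : Fintype.card F = 2 := by omega
      have := FiniteField.cast_card_eq_zero F
      rwa [h2'] at this
    have h3r := Nat.pow_le_pow_left hq (Module.finrank F E)
    have key : ∀ k, 4 * (k + 3) + 2 < 3 ^ (k + 3) := by
      intro k
      induction k with
      | zero => norm_num
      | succ k ih => rw [show k + 1 + 3 = k + 3 + 1 by ring, pow_succ]; omega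
    have h5 := key (Module.finrank F E - 3)
    rw [show Module.finrank F E - 3 + 3 = Module.finrank F E by omega] at h5
    omega
  set b := e1 + lam • e2 with hb
  set a := 2 * A / (A + lam ^ 2 * B) - 1 with ha
  set s := refl (qf fB) e1 * refl (qf fB) b
  have hsinv : s⁻¹ = refl (qf fB) b * refl (qf fB) e1 := by rw [mul_inv_rev, refl_inv, refl_inv]
  have hyb : fB y b = 0 := by rw [hb, map_add, map_smul, hye1, hye2, smul_zero, add_zero]
  have hby : fB b y = 0 := by rw [H.fB_comm, hyb]
  have hsy : s.1 y = y := by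
    simp [s, orth_mul_apply, refl_apply, H.qf_polar, he1y, hby]
  have hsy' : (s⁻¹).1 y = y := by conv_lhs => rw [← hsy, orth_inv_apply_apply]
  -- the sum with the inverse is scalar on the perp
  have hsum : ∀ z, fB y z = 0 → s.1 z + (s⁻¹).1 z = (2 * a) • z := by
    intro z hz
    obtain ⟨x, w, rfl⟩ := hspan z hz
    rw [hsinv]
    simp only [s, ha, hb, orth_mul_apply, refl_apply, qf_apply, H.qf_polar, map_add, map_sub, map_smul,
      LinearMap.add_apply, LinearMap.sub_apply, LinearMap.smul_apply, smul_eq_mul, h12, h21, ← hA, ← hB]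
    have := H.twoE
    have hinv := mul_inv_cancel₀ hden
    match_scalars <;> field_simp <;> first
      | ring1
      | linear_combination (4 * x * A ^ 2) * hinv
      | linear_combination -(4 * A * lam ^ 2 * B * w) * hinv
  clear_value s
  have hperp : ∀ (k : orth (qf fB)), k.1 y = y → ∀ z, fB y z = 0 → fB y (k.1 z) = 0 := by
    intro k hk z hz
    rw [← H.qf_polar, ← hk, orth_polar, H.qf_polar, hz]
  have hcheb : ∀ k : ℕ, (∀ z, fB y z = 0 → (s ^ k).1 z + ((s⁻¹) ^ k).1 z =
      (2 * (Polynomial.Chebyshev.T E (k : ℤ)).eval a) • z) ∧ (∀ z, fB y z = 0 → (s ^ (k + 1)).1 z +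
      ((s⁻¹) ^ (k + 1)).1 z = (2 * (Polynomial.Chebyshev.T E ((k : ℤ) + 1)).eval a) • z) := by
    intro k
    induction k with
    | zero =>
      refine ⟨fun z _ => ?_, fun z hz => ?_⟩
      · simp [two_smul]
      · simpa using hsum z hz
    | succ k ih =>
      refine ⟨fun z hz => by have := ih.2 z hz; simpa using this, fun z hz => ?_⟩
      have e1' := congrArg s.1 (ih.2 z hz)
      have e2' := congrArg (s⁻¹).1 (ih.2 z hz)
      have e3 := ih.1 z hz
      have e4 := hsum z hz
      rw [map_add, map_smul] at e1' e2'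
      have p1 : s.1 ((s ^ (k + 1)).1 z) = (s ^ (k + 1 + 1)).1 z := by rw [pow_succ' s (k + 1), orth_mul_apply]
      have p2 : s.1 (((s⁻¹) ^ (k + 1)).1 z) = ((s⁻¹) ^ k).1 z := by
        rw [pow_succ' s⁻¹ k, orth_mul_apply, orth_apply_inv_apply]
      have p3 : (s⁻¹).1 ((s ^ (k + 1)).1 z) = (s ^ k).1 z := by
        rw [pow_succ' s k, orth_mul_apply, orth_inv_apply_apply]
      have p4 : (s⁻¹).1 (((s⁻¹) ^ (k + 1)).1 z) = ((s⁻¹) ^ (k + 1 + 1)).1 z := by
        rw [pow_succ' s⁻¹ (k + 1), orth_mul_apply]
      rw [p1, p2] at e1'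
      rw [p3, p4] at e2'
      rw [show ((k + 1 : ℕ) : ℤ) + 1 = (k : ℤ) + 2 by push_cast; ring, Polynomial.Chebyshev.T_add_two]
      simp only [Polynomial.eval_sub, Polynomial.eval_mul, Polynomial.eval_X, Polynomial.eval_ofNat]
      linear_combination (norm := module) e1' + e2' - e3 +
        (2 * (Polynomial.Chebyshev.T E ((k : ℤ) + 1)).eval a) • e4
  have hfix : ∀ k : ℕ, (s ^ k).1 y = y := fun k => by
    induction k with
    | zero => rfl
    | succ k ih => rw [pow_succ, orth_mul_apply, hsy, ih]
  refine ⟨resHom H (s * s), H.res_mem ?_, by rw [resHom_apply, orth_mul_apply, hsy, hsy], fun z hz => ?_⟩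
  · haveI : Module.Finite E V := Module.Finite.of_finite
    rw [commutator_eq_ker H.nondeg (Or.inl H.cardE), MonoidHom.mem_ker, map_mul]
    exact Prod.ext (Int.units_mul_self _) (Int.units_mul_self _)
  rw [← map_pow, resHom_apply, ← pow_two, ← pow_mul, ← hN] at hz
  set c := fB y z / fB y y
  set w := z - c • y
  have hw : fB y w = 0 := by simp [w, c, hyy]
  have hfw : (s ^ N).1 w = w := by rw [map_sub, map_smul, hz, hfix]
  have hfw' : ((s⁻¹) ^ N).1 w = w := by
    rw [inv_pow]
    conv_lhs => rw [← hfw, orth_inv_apply_apply]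
  have := (hcheb N).1 w hw
  rw [hfw, hfw', ← two_smul E, mul_smul] at this
  have hw0 : (1 - T.eval a) • w = 0 := by
    have h' : (2 : E) • ((1 - T.eval a) • w) = 0 := by
      rw [sub_smul, one_smul, smul_sub, this, sub_self]
    exact (smul_eq_zero.1 h').resolve_left H.twoE
  have : w = 0 := (smul_eq_zero.1 hw0).resolve_left (sub_ne_zero.2 (Ne.symm hroot))
  exact Submodule.mem_span_singleton.2 ⟨c, (sub_eq_zero.1 this).symm⟩

/-- In dimension three, some stabiliser of a singular vector moves its line. -/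
theorem exists_out_small (hno : ¬ commutator (orth Q) ≤ M) (h3 : Module.finrank E V = 3)
    (hr3 : 3 ≤ Module.finrank F E) : ∃ v : V, v ≠ 0 ∧ fB v v = 0 ∧ ∃ g ∈ M, g.1 v = v ∧
    ∃ c : E, g.1 (c • v) ∉ Submodule.span E {v} := by
  haveI : Module.Finite E V := Module.Finite.of_finite
  by_contra hcon
  push Not at hcon
  refine H.false_of_line fun h hh x hx0 hx c => ?_
  by_contra hz
  have hc0 : c ≠ 0 := fun e => hz (by rw [e, zero_smul, map_zero]; exact zero_mem _)
  have hy0 : h.1 x ≠ 0 := fun e => hx0 (h.1.map_eq_zero_iff.1 e)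
  have conj_fix : ∀ t : orth Q, t.1 (h.1 x) = h.1 x → (h⁻¹ * t * h).1 x = x := fun t ht => by
    rw [orth_mul_apply, orth_mul_apply, ht, orth_inv_apply_apply]
  by_cases hyy : fB (h.1 x) (h.1 x) = 0
  · obtain ⟨g, hg, hinj⟩ := H.orbit_family_of_iso hy0 hyy hz
    have hmem : ∀ a, ∃ d : {d : E // d ≠ 0}, (g a).1 (h.1 (c • x)) = h.1 (d.1 • x) := by
      intro a
      obtain ⟨d, hd⟩ := Submodule.mem_span_singleton.1
        (hcon x hx0 hx _ (mul_mem (mul_mem (inv_mem hh) (hg a).1) hh) (conj_fix _ (hg a).2) c)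
      refine ⟨⟨d, fun e => ?_⟩, ?_⟩
      · rw [e, zero_smul, eq_comm, LinearEquiv.map_eq_zero_iff] at hd
        exact smul_ne_zero hc0 hx0 hd
      · show _ = h.1 (d • x)
        rw [hd, orth_mul_apply, orth_mul_apply, orth_apply_inv_apply]
    choose d hd using hmem
    have hdinj : Function.Injective d := fun a b hab => hinj (by
      show (g a).1 _ = (g b).1 _
      rw [hd, hd, hab])
    exact absurd (Nat.card_le_card_of_injective d hdinj)
      (not_le.2 (Finite.card_subtype_lt (x := (0 : E)) fun h => h rfl))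
  · obtain ⟨t, ht, hty, hfix⟩ := exists_torus_small H h3 hr3 hyy
    set k := h⁻¹ * t * h with hk
    have hkM : k ∈ M := mul_mem (mul_mem (inv_mem hh) ht) hh
    obtain ⟨A, hA⟩ := H.line_aut hno hx0 hx hkM (conj_fix t hty) (hcon x hx0 hx k hkM (conj_fix t hty))
    let A' : E ≃ₐ[F] E := AlgEquiv.ofBijective A ⟨A.injective, Finite.injective_iff_surjective.1 A.injective⟩
    have hpow : ∀ (i : ℕ) (a : E), (k ^ i).1 (a • x) = (A' ^ i) a • x := by
      intro i
      induction i with
      | zero => intro a; rfl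
      | succ i ih => intro a; rw [pow_succ, orth_mul_apply, hA, ih, pow_succ, AlgEquiv.mul_apply]; rfl
    refine hz (hfix _ ?_)
    have h1 := hpow (Module.finrank F E) c
    rw [← IsGalois.card_aut_eq_finrank F E, pow_card_eq_one', IsGalois.card_aut_eq_finrank F E] at h1
    have h2 : t ^ Module.finrank F E = h * k ^ Module.finrank F E * h⁻¹ := by
      rw [← conj_pow, hk]
      congr 1
      group
    rw [h2, orth_mul_apply, orth_mul_apply, orth_inv_apply_apply, h1]
    rfl

/-- Outside a small set the common perp has a vector with a solution. -/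
theorem exists_solution_small (h3 : Module.finrank E V = 3) (hr3 : 3 ≤ Module.finrank F E) {v : V} (hv0 : v ≠ 0)
    (hv : fB v v = 0) {g : orth Q} (hgv : g.1 v = v) (hK : lineK E v g = base F E) (Bad : Finset V)
    (hBad : ∀ d ∈ commonPerp E v g, d ∈ Submodule.span E {v} → d ∈ Bad)
    (hb4 : Bad.card < Fintype.card F ^ 2)
    (Bad' : Finset V) (hBad' : ∀ d ∈ Bad, d ∉ Submodule.span E {v} → d ∈ Bad')
    (hsize : 2 * Fintype.card F ^ Module.finrank F E + Fintype.card F * Bad'.card <
      Fintype.card F ^ Module.finrank F E * (Fintype.card F - 1) + 2 * Fintype.card F) :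
    ∃ d ∈ commonPerp E v g, d ∉ Bad ∧ ∃ c : E, fB d d + 2 * fB (g.1 (c • v)) d = 0 := by
  classical
  haveI : Module.Finite F V := Module.Finite.of_finite
  haveI : Module.Finite E V := Module.Finite.of_finite
  letI : Fintype V := Fintype.ofFinite V
  by_contra hcon
  push Not at hcon
  set D := commonPerp E v g
  obtain ⟨u0, hvu0, hu00, hgen⟩ := H.exists_perp_gen h3 hv0 hv
  have hu0v : fB u0 v = 0 := by rw [H.fB_comm, hvu0]
  set q := Fintype.card F
  set r := Module.finrank F E
  have hq3 := H.cardF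
  -- every such vector pairs with its scalar line in `D`
  have hpair : ∀ d ∈ D, d ∉ Bad → ∃ η : E, η • d ∈ D ∧ polar Q d (η • d) ≠ 0 := by
    intro d hd hdB
    by_contra h
    push Not at h
    let Φ : E →ₗ[F] E := (fB d).restrictScalars F ∘ₗ lineMap E v g
    have hx : fB d d ∈ LinearMap.range Φ := by
      by_contra hx
      obtain ⟨φ, hφ0, hφ⟩ := Submodule.exists_dual_map_eq_bot_of_notMem hx inferInstance
      obtain ⟨η, hη⟩ := exists_trace_rep (F := F) (E := E) φ
      have hrange : ∀ c, Algebra.trace F E (η * fB d (g.1 (c • v))) = 0 := fun c => by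
        rw [← hη, ← Submodule.mem_bot (R := F), ← hφ]
        exact Submodule.mem_map_of_mem ⟨c, rfl⟩
      have hmem : η • d ∈ D := by
        rw [H.mem_commonPerp]
        refine ⟨by rw [map_smul, (H.mem_commonPerp.1 hd).1, smul_zero], eq_zero_of_trace (F := F) fun c => ?_⟩
        rw [H.htr, ← orth_polar g, orth_apply_inv_apply, polar_comm, ← H.htr d, mul_comm] at *
        exact hrange c
      refine hφ0 ?_
      rw [hη, mul_comm, H.htr, H.adj]
      exact h η hmem
    obtain ⟨c, hc⟩ := hx
    have hc' : fB d (g.1 (c • v)) = fB d d := hc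
    refine hcon d hd hdB ((-(2 : F)⁻¹) • c) ?_
    rw [smul_assoc, LinearEquiv.map_smul, LinearMap.map_smul_of_tower, LinearMap.smul_apply, H.fB_comm (g.1 (c • v)) d,
      hc', Algebra.smul_def, map_neg, map_inv₀, map_ofNat]
    have := H.twoE
    field_simp
    ring
  -- the zeros
  set Zs : Finset V := Finset.univ.filter fun d => d ∈ D ∧ d ∉ Submodule.span E {v} ∧ Q d = 0
  have hlow : q ^ r * (q - 1) ≤ q * Zs.card := by
    -- the radical is small
    set R : Submodule F V := D ⊓ perp Q D
    have hR : Module.finrank F R ≤ 1 := by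
      have hsub : (R : Set V).toFinset ⊆ Bad := fun d hd => by
        rw [Set.mem_toFinset] at hd
        by_contra hdB
        obtain ⟨η, hη, hne⟩ := hpair d hd.1 hdB
        exact hne (by rw [polar_comm]; exact hd.2 _ hη)
      have h1 := (Finset.card_le_card hsub).trans_lt hb4
      rw [Set.toFinset_card, ← Nat.card_eq_fintype_card] at h1
      change Nat.card R < _ at h1
      rw [Module.natCard_eq_pow_finrank (K := F), Nat.card_eq_fintype_card] at h1
      have := (Nat.pow_lt_pow_iff_right (by omega)).1 h1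
      omega
    obtain ⟨C, hC⟩ := R.exists_isCompl
    have hm : r + 1 ≤ Module.finrank F D := by
      have := H.finrank_commonPerp h3 hv0 g
      rwa [hK, H.finrank_base] at this
    have hdim : 3 ≤ Module.finrank F ↥(D ⊓ C) := by
      have h1 := Submodule.finrank_sup_add_finrank_inf_eq D C
      have h2 := Submodule.finrank_add_eq_of_isCompl hC
      have h4 := Submodule.finrank_le (D ⊔ C)
      omega
    let B : ↥(D ⊓ C) →ₗ[F] ↥(D ⊓ C) →ₗ[F] F :=
      (polarBilin Q).compl₁₂ (D ⊓ C).subtype (D ⊓ C).subtype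
    obtain ⟨⟨z, hzD, hzC⟩, hz0', hz⟩ := exists_ne_zero_of_quadratic B 0 (by rw [Module.finrank_self]; omega)
    have hz0 : z ≠ 0 := fun e => hz0' (Subtype.ext e)
    have hzQ : Q z = 0 := by
      have : polar Q z z + 0 = 0 := hz
      rw [polar_self', add_zero, mul_eq_zero] at this
      exact this.resolve_left H.two
    have hzR : z ∉ perp Q D := fun h => hz0 (Submodule.disjoint_def.1 hC.disjoint z ⟨hzD, h⟩ hzC)
    obtain ⟨x0, hx0, hx0z⟩ : ∃ x ∈ D, polar Q z x ≠ 0 := by
      by_contra h
      push Not at h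
      exact hzR fun w hw => by
        show polar Q w z = 0
        rw [polar_comm]; exact h w hw
    set P0 : Submodule F V := D ⊓ LinearMap.ker (polarBilin Q z)
    have hP : Module.finrank F P0 + 1 ≤ Module.finrank F D :=
      Submodule.finrank_lt_finrank_of_lt (SetLike.lt_iff_le_and_exists.2
        ⟨inf_le_left, x0, hx0, fun h => hx0z h.2⟩)
    set A : Finset V := (D : Set V).toFinset \ (P0 : Set V).toFinset
    have hA : q ^ r * (q - 1) ≤ A.card := by
      rw [Finset.card_sdiff_of_subset (Set.toFinset_subset_toFinset.2 (SetLike.coe_subset_coe.2 inf_le_left)),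
        Set.toFinset_card, Set.toFinset_card, ← Nat.card_eq_fintype_card, ← Nat.card_eq_fintype_card]
      show _ ≤ Nat.card D - Nat.card P0
      rw [Module.natCard_eq_pow_finrank (K := F) (V := D), Module.natCard_eq_pow_finrank (K := F) (V := P0),
        Nat.card_eq_fintype_card]
      have h1 : q ^ Module.finrank F P0 ≤ q ^ (Module.finrank F D - 1) :=
        Nat.pow_le_pow_right (by omega) (by omega)
      have h2 : q ^ Module.finrank F D = q ^ (Module.finrank F D - 1) * q := by
        rw [← pow_succ, Nat.sub_add_cancel (by omega)]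
      have h3' : q ^ r ≤ q ^ (Module.finrank F D - 1) := Nat.pow_le_pow_right (by omega) (by omega)
      rw [h2]
      calc q ^ r * (q - 1) ≤ q ^ (Module.finrank F D - 1) * (q - 1) := Nat.mul_le_mul_right _ h3'
        _ = q ^ (Module.finrank F D - 1) * q - q ^ (Module.finrank F D - 1) := Nat.mul_sub_one _ _
        _ ≤ _ := Nat.sub_le_sub_left h1 _
    refine hA.trans ?_
    rw [show q = (Finset.univ : Finset F).card from rfl, ← Finset.card_product]
    refine Finset.card_le_card_of_injOn (fun x => (Q x / polar Q z x, x - (Q x / polar Q z x) • z)) ?_ ?_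
    · intro x hx
      rw [Finset.mem_coe] at hx ⊢
      obtain ⟨hxD, hxP⟩ := Finset.mem_sdiff.1 hx
      rw [Set.mem_toFinset] at hxD hxP
      have hp : polar Q z x ≠ 0 := fun h => hxP ⟨hxD, h⟩
      refine Finset.mem_product.2 ⟨Finset.mem_univ _, Finset.mem_filter.2 ⟨Finset.mem_univ _,
        D.sub_mem hxD (D.smul_mem _ hzD), fun h => ?_, ?_⟩⟩
      · obtain ⟨δ, hδ⟩ := Submodule.mem_span_singleton.1 h
        have h1 : polar Q z (δ • v) = 0 := by
          rw [polar_comm]; exact H.polar_line (H.mem_commonPerp.1 hzD).1 δ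
        rw [hδ, polar_sub_right, polar_smul_right, polar_self', hzQ, mul_zero, smul_zero, sub_zero] at h1
        exact hp h1
      · rw [map_sub_smul, hzQ, polar_comm (⇑Q) x z, div_mul_cancel₀ _ hp]
        ring
    · intro x _ y _ hxy
      obtain ⟨h1, h2⟩ := Prod.mk.injEq _ _ _ _ ▸ hxy
      rw [h1] at h2
      exact sub_left_injective h2
  -- the lines
  let Y : V → Submodule F E := fun d => D.comap (lineVec F E d)
  let W : V → Submodule F V := fun d => (Y d).map (lineVec F E d)
  let Ker : V → Finset E := fun d => Finset.univ.filter fun c => c ∉ base F E ∧ fB d (g.1 (c • v)) = 0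
  set T := Zs.filter fun d => d ∉ Bad
  have hsplit : Zs.card ≤ T.card + Bad'.card := by
    refine (Finset.card_le_card (t := T ∪ Bad') fun d hd => ?_).trans (Finset.card_union_le _ _)
    by_cases h : d ∈ Bad
    · exact Finset.mem_union_right _ (hBad' d h (Finset.mem_filter.1 hd).2.2.1)
    · exact Finset.mem_union_left _ (Finset.mem_filter.2 ⟨hd, h⟩)
  have hker : ∀ d ∈ D, (Ker d).card + q = Nat.card (Y d) := by
    intro d hd
    let Φ : E →ₗ[F] E := (fB d).restrictScalars F ∘ₗ lineMap E v g
    have horth : LinearMap.BilinForm.orthogonal (Algebra.traceForm F E) (LinearMap.range Φ) = Y d := by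
      ext η
      rw [LinearMap.BilinForm.mem_orthogonal_iff]
      constructor
      · intro h
        show η • d ∈ D
        rw [H.mem_commonPerp]
        refine ⟨by rw [map_smul, (H.mem_commonPerp.1 hd).1, smul_zero], eq_zero_of_trace (F := F) fun c => ?_⟩
        have := h _ ⟨c, rfl⟩
        rw [H.htr, ← orth_polar g, orth_apply_inv_apply, polar_comm, ← H.htr d, mul_comm]
        rw [mul_comm]
        exact this
      · rintro h _ ⟨c, rfl⟩
        have h1 := (H.mem_commonPerp.1 (show η • d ∈ D from h)).2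
        show Algebra.trace F E (fB d (g.1 (c • v)) * η) = 0
        rw [H.htr, ← orth_apply_inv_apply g (η • d), orth_polar, polar_comm]
        exact H.polar_line h1 c
    have h1 := LinearMap.BilinForm.finrank_orthogonal (traceForm_nondegenerate F E) (LinearMap.range Φ)
    rw [horth] at h1
    have h2 := Φ.finrank_range_add_finrank_ker
    have h4 : Module.finrank F (LinearMap.ker Φ) = Module.finrank F (Y d) := by omega
    have hsub : base F E ≤ LinearMap.ker Φ := fun c hc => by
      obtain ⟨δ, hδ⟩ := Submodule.mem_span_singleton.1 (mem_lineK.1 (hK ▸ hc))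
      show fB d (g.1 (c • v)) = 0
      rw [← hδ, map_smul, H.fB_comm, (H.mem_commonPerp.1 hd).1, smul_zero]
    have e1 : Ker d = (LinearMap.ker Φ : Set E).toFinset \ (base F E : Set E).toFinset := by
      ext c
      rw [Finset.mem_sdiff, Set.mem_toFinset, Set.mem_toFinset, Finset.mem_filter]
      exact ⟨fun h => ⟨h.2.2, h.2.1⟩, fun h => ⟨Finset.mem_univ _, h.2, h.1⟩⟩
    rw [e1, Finset.card_sdiff_of_subset (Set.toFinset_subset_toFinset.2 hsub), Set.toFinset_card,
      Set.toFinset_card, ← Nat.card_eq_fintype_card, ← Nat.card_eq_fintype_card]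
    show Nat.card (LinearMap.ker Φ) - Nat.card (base F E) + q = _
    have h5 : Nat.card (LinearMap.ker Φ) = Nat.card (Y d) := by
      rw [Module.natCard_eq_pow_finrank (K := F) (V := LinearMap.ker Φ),
        Module.natCard_eq_pow_finrank (K := F) (V := Y d), h4]
    have h6 : Nat.card (base F E) = q := by
      rw [Module.natCard_eq_pow_finrank (K := F) (V := base F E), H.finrank_base, pow_one, Nat.card_eq_fintype_card]
    have h7 : Nat.card (base F E) ≤ Nat.card (LinearMap.ker Φ) := Nat.card_mono (Set.toFinite _) hsub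
    omega
  have hcardW : ∀ d : V, d ≠ 0 → Nat.card (W d) = Nat.card (Y d) := fun d hd0 =>
    (Nat.card_congr (Submodule.equivMapOfInjective _ (smul_left_injective E hd0) (Y d)).toEquiv).symm
  have hline : ∀ d ∈ T, d ∈ D ∧ d ∉ Submodule.span E {v} ∧ Q d = 0 ∧ d ∉ Bad ∧ d ≠ 0 := fun d hd => by
    obtain ⟨hd, hB⟩ := Finset.mem_filter.1 hd
    obtain ⟨-, h1, h2, h4⟩ := Finset.mem_filter.1 hd
    exact ⟨h1, h2, h4, hB, fun e => h2 (e ▸ zero_mem _)⟩
  -- one representative for each line
  set I := T.image W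
  have hrep : ∀ w ∈ I, ∃ d ∈ T, W d = w := fun w hw => Finset.mem_image.1 hw
  choose rep hrepT hrepW using hrep
  have hcount : ∀ w : {w // w ∈ I}, q * (T.filter fun d => W d = w.1).card ≤ 2 * (Ker (rep w.1 w.2)).card := by
    rintro ⟨w, hw⟩
    set d := rep w hw
    obtain ⟨hd, -, hdQ, hdB, hd0⟩ := hline d (hrepT w hw)
    obtain ⟨η, hη, hne⟩ := hpair d hd hdB
    have hdW : d ∈ W d := ⟨1, show (1 : E) • d ∈ D by rwa [one_smul], one_smul E d⟩
    have hηW : η • d ∈ W d := ⟨η, hη, rfl⟩
    obtain ⟨u, hu, hqu⟩ : ∃ u ∈ W d, Q u ≠ 0 := by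
      by_contra h
      push Not at h
      exact hne (by rw [QuadraticMap.polar, h _ ((W d).add_mem hdW hηW), h _ hdW, h _ hηW, sub_zero, sub_zero])
    have := zeros_le Q (W d) hu hqu (T.filter fun x => W x = w) fun x hx => by
      obtain ⟨hxT, hxw⟩ := Finset.mem_filter.1 hx
      obtain ⟨hxD, -, hxQ, -, hx0⟩ := hline x hxT
      refine ⟨?_, hxQ, hx0⟩
      rw [show W d = W x from (hrepW w hw).trans hxw.symm]
      exact ⟨1, show (1 : E) • x ∈ D by rwa [one_smul], one_smul E x⟩
    refine this.trans (Nat.mul_le_mul_left 2 (le_of_eq ?_))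
    rw [hcardW d hd0, ← hker d hd, Nat.add_sub_cancel]
  have hdisj : ∀ w ∈ (Finset.univ : Finset {w // w ∈ I}), ∀ w' ∈ (Finset.univ : Finset {w // w ∈ I}), w ≠ w' →
      Disjoint (Ker (rep w.1 w.2)) (Ker (rep w'.1 w'.2)) := by
    intro w _ w' _ hne
    refine Finset.disjoint_left.2 fun c hc hc' => ?_
    obtain ⟨-, hcb, hc1⟩ := Finset.mem_filter.1 hc
    obtain ⟨-, -, hc2⟩ := Finset.mem_filter.1 hc'
    set d := rep w.1 w.2
    set d' := rep w'.1 w'.2
    obtain ⟨hd, hdv, -, -, hd0⟩ := hline d (hrepT _ _)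
    obtain ⟨hd', hdv', -, -, hd0'⟩ := hline d' (hrepT _ _)
    obtain ⟨e, l, hdel⟩ := hgen d (H.mem_commonPerp.1 hd).1
    obtain ⟨e', l', hdel'⟩ := hgen d' (H.mem_commonPerp.1 hd').1
    have he : e ≠ 0 := fun h => hdv (by
      rw [hdel, h, zero_smul, zero_add]; exact Submodule.smul_mem _ _ (Submodule.mem_span_singleton_self v))
    set a := e' / e
    have hdd : d' = a • d + (l' - a * l) • v := by
      rw [hdel, hdel', smul_add, smul_smul, smul_smul, div_mul_cancel₀ _ he, sub_smul]
      abel
    by_cases hδ : l' - a * l = 0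
    · rw [hδ, zero_smul, add_zero] at hdd
      refine hne (Subtype.ext ?_)
      rw [← hrepW _ w.2, ← hrepW _ w'.2]
      have ha : a ≠ 0 := fun h => hd0' (by rw [hdd, h, zero_smul])
      ext x
      constructor
      · rintro ⟨η, hη, rfl⟩
        refine ⟨η / a, show (η / a) • d' ∈ D from ?_, ?_⟩
        · rw [hdd, smul_smul, div_mul_cancel₀ _ ha]; exact hη
        · show (η / a) • d' = η • d
          rw [hdd, smul_smul, div_mul_cancel₀ _ ha]
      · rintro ⟨η, hη, rfl⟩
        refine ⟨η * a, show (η * a) • d ∈ D from ?_, ?_⟩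
        · rw [mul_smul, ← hdd]; exact hη
        · show (η * a) • d = η • d'
          rw [mul_smul, ← hdd]
    · have hvc : fB v (g.1 (c • v)) = 0 := by
        rw [hdd, map_add, map_smul, map_smul, LinearMap.add_apply, LinearMap.smul_apply, LinearMap.smul_apply,
          hc1, smul_zero, zero_add, smul_eq_mul, mul_eq_zero] at hc2
        exact hc2.resolve_left hδ
      refine hcb (hK ▸ mem_lineK.2 (H.mem_line fun p hp => ?_))
      obtain ⟨ep, lp, rfl⟩ := hgen p hp
      have hu0c : fB u0 (g.1 (c • v)) = 0 := by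
        rw [hdel, map_add, map_smul, map_smul, LinearMap.add_apply, LinearMap.smul_apply, LinearMap.smul_apply,
          hvc, smul_zero, add_zero, smul_eq_mul, mul_eq_zero] at hc1
        exact hc1.resolve_left he
      rw [map_add (fB (g.1 (c • v))), map_smul (fB (g.1 (c • v))), map_smul (fB (g.1 (c • v))), H.fB_comm _ u0, hu0c,
        H.fB_comm _ v, hvc, smul_zero, smul_zero, add_zero]
  have hup : q * T.card ≤ 2 * (q ^ r - q) := by
    rw [Finset.card_eq_sum_card_image W T, Finset.mul_sum]
    show ∑ w ∈ I, _ ≤ _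
    rw [← Finset.sum_coe_sort I]
    refine (Finset.sum_le_sum fun w _ => hcount w).trans ?_
    rw [← Finset.mul_sum, ← Finset.card_biUnion hdisj]
    refine Nat.mul_le_mul_left 2 ((Finset.card_le_card
      (t := Finset.univ \ (base F E : Set E).toFinset) fun c hc => ?_).trans (le_of_eq ?_))
    · obtain ⟨w, -, hw⟩ := Finset.mem_biUnion.1 hc
      exact Finset.mem_sdiff.2 ⟨Finset.mem_univ _, by
        rw [Set.mem_toFinset]; exact (Finset.mem_filter.1 hw).2.1⟩
    · rw [Finset.card_sdiff_of_subset (Finset.subset_univ _), Finset.card_univ, Set.toFinset_card,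
        ← Nat.card_eq_fintype_card (α := E), ← Nat.card_eq_fintype_card (α := ((base F E : Set E))), card_E F E]
      show _ - Nat.card (base F E) = _
      rw [Module.natCard_eq_pow_finrank (K := F) (V := base F E), H.finrank_base, pow_one, Nat.card_eq_fintype_card]
  have h1 := Nat.mul_le_mul_left q hsplit
  rw [mul_add] at h1
  have h2 : q ≤ q ^ r := Nat.le_self_pow (by omega) q
  omega

/-- Only the base field on the line is impossible. -/
theorem false_of_base_small (h3 : Module.finrank E V = 3) (hr3 : 3 ≤ Module.finrank F E)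
    {v : V} (hv0 : v ≠ 0) (hv : fB v v = 0) (hS : PerpStays M fB v) {g : orth Q} (hg : g ∈ M)
    (hgv : g.1 v = v) (hK : lineK E v g = base F E) : False := by
  classical
  letI : Fintype V := Fintype.ofFinite V
  set q := Fintype.card F with hq
  have hq3 := H.cardF
  set S0 : Finset V := Finset.univ.filter fun d => d ∈ commonPerp E v g ∧ d ∈ Submodule.span E {v}
  have hS0 : S0.card ≤ q := by
    refine (Finset.card_le_card (t := Finset.univ.image fun s : F => s • v) fun d hd => ?_).trans Finset.card_image_le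
    obtain ⟨-, hdD, hdv⟩ := Finset.mem_filter.1 hd
    obtain ⟨δ, rfl⟩ := Submodule.mem_span_singleton.1 hdv
    obtain ⟨hi, hiv, hip⟩ := H.line_of_commonPerp hg hgv hdD
    obtain ⟨s, rfl⟩ := H.base_of_inv hv0 hgv hK (hS _ hi hiv δ hip)
    exact Finset.mem_image.2 ⟨s, Finset.mem_univ _, (algebraMap_smul E s v).symm⟩
  have hb4 : S0.card < q ^ 2 := hS0.trans_lt (by nth_rw 1 [← pow_one q]; exact Nat.pow_lt_pow_right (by omega) (by norm_num))
  obtain ⟨d, hd, hdB, c, heq⟩ := exists_solution_small H h3 hr3 hv0 hv hgv hK S0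
    (fun d hd hdv => Finset.mem_filter.2 ⟨Finset.mem_univ _, hd, hdv⟩) hb4 ∅
    (fun d hd hdv => absurd (Finset.mem_filter.1 hd).2.2 hdv) (by
      rw [Finset.card_empty, mul_zero, add_zero, mul_comm 2]
      exact Nat.lt_of_le_of_lt (Nat.mul_le_mul_left _ (show 2 ≤ q - 1 by omega))
        (Nat.lt_add_of_pos_right (by omega)))
  by_cases hc : c ∈ lineK E v g
  · obtain ⟨δ, hδ⟩ := Submodule.mem_span_singleton.1 (mem_lineK.1 hc)
    rw [← hδ, map_smul fB, LinearMap.smul_apply, (H.mem_commonPerp.1 hd).1, smul_zero, mul_zero, add_zero] at heq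
    obtain ⟨u0, hvu0, hu00, hgen⟩ := H.exists_perp_gen h3 hv0 hv
    obtain ⟨e, l, rfl⟩ := hgen d (H.mem_commonPerp.1 hd).1
    simp only [map_add, map_smul, LinearMap.add_apply, LinearMap.smul_apply, smul_eq_mul, hvu0, H.fB_comm u0 v,
      hv, mul_zero, add_zero, mul_eq_zero, hu00, or_false, or_self] at heq
    refine hdB (Finset.mem_filter.2 ⟨Finset.mem_univ _, hd, ?_⟩)
    rw [heq, zero_smul, zero_add]
    exact Submodule.smul_mem _ _ (Submodule.mem_span_singleton_self v)
  · exact hdB (Finset.mem_filter.2 ⟨Finset.mem_univ _, hd,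
      (H.solution_mem_line hv hS hg hgv hc hd heq) ▸ zero_mem _⟩)

/-- In dimension three over a cubic extension the overgroup contains `Ω`. -/
theorem omega_le_cubic (h3 : Module.finrank E V = 3) (hr : Module.finrank F E = 3) :
    commutator (orth Q) ≤ M := by
  classical
  by_contra hno
  obtain ⟨v, hv0, hv, g, hg, hgv, c, hc⟩ := exists_out_small H hno h3 hr.ge
  have hS := perpStays_odd H hno h3 (by rw [hr]; decide) hv0 hv
  have hc' : c ∉ lineK E v g := fun h => hc (mem_lineK.1 h)
  have hb := H.base_le_lineK (v := v) hgv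
  by_cases hlarge : Module.finrank F E < 2 * Module.finrank F (lineK E v g)
  · exact H.false_of_large h3 hv0 hv hS hg hgv hc' hlarge
  · exact false_of_base_small H h3 hr.ge hv0 hv hS hg hgv
      (Submodule.eq_of_le_of_finrank_le hb (by rw [H.finrank_base]; omega)).symm

end Ctx

variable {ι : Type} [Fintype ι] [DecidableEq ι] {F : Type*} [Field F] [Fintype F]

/-- The normaliser of a self-adjoint field of prime degree at most a third of the dimension is maximal in
`Ω`, apart from degree two in dimension three over the field. -/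
theorem field_maximal_odd (Q : QuadraticForm F (ι → F)) {f : (ι → F) → F} (hf : ⇑Q = f)
    (hQ : (polarBilin Q).Nondegenerate) (h2 : (2 : F) ≠ 0) {r : ℕ} {K : Subalgebra F (Matrix ι ι F)}
    (hr : r.Prime) (hK : Cfsg.Geo.IsFieldSubalgebra r K) (h4 : 3 * r ≤ Fintype.card ι)
    (hcase : r ≠ 2 ∨ 4 * r ≤ Fintype.card ι)
    (hsa : Cfsg.Geo.IsSelfAdjointFor (QuadraticMap.polar f) K) :
    Cfsg.Geo.IsMaximalIn (Cfsg.Geo.omegaGL f) (Cfsg.Geo.subalgebraNormalizer K ⊓ Cfsg.Geo.omegaGL f) := by
  classical
  have hr2 := hr.two_le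
  have : Nonempty ι := Fintype.card_pos_iff.1 (by omega)
  haveI : Finite (ι → F) := Pi.finite
  have hfr : Module.finrank F (FK hK) = r := FK.finrank_eq hK
  have hn : r * Module.finrank (FK hK) (ι → F) = Fintype.card ι := by
    have := Module.finrank_mul_finrank F (FK hK) (ι → F)
    rwa [hfr, Module.finrank_fintype_fun_eq_card] at this
  have hcard : Module.finrank F (ι → F) = Fintype.card ι := Module.finrank_fintype_fun_eq_card F
  have hext : ∀ {A B : Matrix ι ι F}, (∀ v, A *ᵥ v = B *ᵥ v) → A = B := fun he =>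
    Matrix.ext_of_mulVec_single fun _ => he _
  have hsemi : ∀ g : orth Q, SemiL (FK hK) g.1 → toGLHom Q hf g ∈ Cfsg.Geo.subalgebraNormalizer K := by
    intro g hg
    refine mem_normalizer_of_conj fun k hk => ?_
    obtain ⟨d, hd⟩ := hg (FK.mk hK k hk)
    have : ((toGLHom Q hf g : GL ι F) : Matrix ι ι F) * k * (((toGLHom Q hf g)⁻¹ : GL ι F) : Matrix ι ι F) =
        d.mat := hext fun v => by
      rw [← Matrix.mulVec_mulVec, ← Matrix.mulVec_mulVec, toGLHom_mulVec, ← map_inv, toGLHom_mulVec]
      have := hd (((g⁻¹ : orth Q) : (ι → F) ≃ₗ[F] (ι → F)) v)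
      rw [FK.smul_eq, FK.smul_eq, orth_apply_inv_apply] at this
      exact this
    rw [this]
    exact (d : ↥K).2
  refine isMaximalIn_omegaGL Q hf _ ?_ fun M hM g hg _ hgS => ?_
  · -- an Eichler transformation is not semilinear
    obtain ⟨c, hc⟩ : ∃ c : FK hK, c ∉ Set.range (algebraMap F (FK hK)) := by
      by_contra hall
      push Not at hall
      have h1 := Fintype.card_le_of_surjective _ hall
      rw [← Nat.card_eq_fintype_card (α := FK hK), card_E F (FK hK), hfr] at h1
      have h3 : Fintype.card F ^ 2 ≤ Fintype.card F ^ r := Nat.pow_le_pow_right Fintype.card_pos hr2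
      have h4' : 2 ≤ Fintype.card F := Fintype.one_lt_card
      have h5 := le_trans h3 h1
      rw [pow_two] at h5
      nlinarith
    obtain ⟨v, hv0, hv⟩ := exists_singular hQ (by omega)
    obtain ⟨u, hvu, hu⟩ : ∃ u, polar Q v u = 0 ∧ u ∉ Submodule.span (FK hK) {v} := by
      by_contra h
      push Not at h
      have h1 : LinearMap.ker (polarBilin Q v) ≤
          LinearMap.range ((LinearMap.toSpanSingleton (FK hK) (ι → F) v).restrictScalars F) := fun u hu => by
        obtain ⟨e, rfl⟩ := Submodule.mem_span_singleton.1 (h u hu)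
        exact ⟨e, rfl⟩
      have h1' := Submodule.finrank_mono h1
      have h1'' := LinearMap.finrank_range_le ((LinearMap.toSpanSingleton (FK hK) (ι → F) v).restrictScalars F)
      have h2' := (polarBilin Q v).finrank_range_add_finrank_ker
      have h3 := Submodule.finrank_le (LinearMap.range (polarBilin Q v))
      rw [Module.finrank_self] at h3
      omega
    have hQE : ∀ z, (eich Q v u : (ι → F) ≃ₗ[F] (ι → F)) z =
        z + polar Q v z • u - polar Q u z • v - (Q u * polar Q v z) • v := eich_apply hv hvu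
    refine ⟨eich Q v u, eichGroup_le_commutator hQ (Or.inr (by omega)) (eich_mem_eichGroup _ _), fun h => ?_⟩
    obtain ⟨d, hd⟩ : ∃ d : FK hK, ∀ x, (eich Q v u : (ι → F) ≃ₗ[F] (ι → F)) (c • x) =
        d • (eich Q v u : (ι → F) ≃ₗ[F] (ι → F)) x := by
      refine ⟨FK.mk hK _ ((h c.mat).1 (c : ↥K).2), fun x => ?_⟩
      rw [FK.smul_eq, FK.smul_eq]
      show _ = (_ * _ * _) *ᵥ _
      rw [← Matrix.mulVec_mulVec, ← Matrix.mulVec_mulVec, ← toGLHom_mulVec Q hf, ← toGLHom_mulVec Q hf,
        H98.gl_inv_mulVec]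
    -- fixed vectors give `d = c`
    let L : (ι → F) →ₗ[F] (F × F) × (F × F) :=
      ((polarBilin Q v).prod (polarBilin Q u)).prod
        (((polarBilin Q v).prod (polarBilin Q u)) ∘ₗ DistribSMul.toLinearMap F (ι → F) c)
    obtain ⟨z, hz, hz0⟩ : ∃ z ∈ LinearMap.ker L, z ≠ 0 :=
      Submodule.exists_mem_ne_zero_of_ne_bot fun hker => by
        have := LinearMap.finrank_le_finrank_of_injective (LinearMap.ker_eq_bot.1 hker)
        rw [hcard, Module.finrank_prod, Module.finrank_prod, Module.finrank_self] at this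
        omega
    simp only [L, LinearMap.mem_ker, LinearMap.prod_apply, Function.prod_apply, Prod.mk_eq_zero,
      LinearMap.comp_apply, DistribSMul.toLinearMap_apply, polarBilin_apply_apply] at hz
    obtain ⟨⟨z1, z2⟩, z3, z4⟩ := hz
    have hdc : d = c := by
      have := hd z
      rw [hQE, hQE, z1, z2, z3, z4] at this
      simp only [mul_zero, zero_smul, add_zero, sub_zero] at this
      exact (smul_left_injective (FK hK) hz0 this).symm
    have huv : u ∉ Submodule.span F {v} := fun h' => hu (by
      obtain ⟨t, rfl⟩ := Submodule.mem_span_singleton.1 h'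
      rw [← algebraMap_smul (FK hK) t v]
      exact Submodule.smul_mem _ _ (Submodule.mem_span_singleton_self v))
    obtain ⟨x, hx1, hx2⟩ := exists_polar_pair hQ hv0 huv 0 1
    have := hd x
    rw [hdc, hQE, hQE, hx1, hx2, smul_sub, smul_sub, smul_add] at this
    simp only [mul_zero, zero_smul, smul_zero, add_zero, sub_zero, one_smul] at this
    -- so `c • v` is in the span of `u` and `v`
    by_cases hcu : polar Q v (c • x) = 0
    · rw [hcu] at this
      simp only [mul_zero, zero_smul, add_zero, sub_zero, sub_right_inj] at this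
      refine hc ⟨polar Q u (c • x), smul_left_injective (FK hK) hv0 ?_⟩
      show algebraMap F (FK hK) _ • v = c • v
      rw [algebraMap_smul]
      exact this
    · refine hu ?_
      have e : polar Q v (c • x) • u =
          (algebraMap F (FK hK) (polar Q u (c • x) + Q u * polar Q v (c • x)) - c) • v := by
        rw [sub_smul, algebraMap_smul, add_smul]
        linear_combination (norm := module) this
      rw [← inv_smul_smul₀ hcu u, e, ← algebraMap_smul (FK hK) (polar Q v (c • x))⁻¹, smul_smul]
      exact Submodule.smul_mem _ _ (Submodule.mem_span_singleton_self v)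
  · obtain ⟨fB, hfB⟩ := exists_form Q fun (c : FK hK) x y => by
      rw [hf, FK.smul_eq, FK.smul_eq]
      exact hsa _ (c : ↥K).2 x y
    have hdim : ∀ k, k * r ≤ Fintype.card ι → k ≤ Module.finrank (FK hK) (ι → F) := fun k hk =>
      Nat.le_of_mul_le_mul_left (by rw [hn, mul_comm]; exact hk) hr.pos
    have H : OCtx Q fB M :=
      { prime := by rw [hfr]; exact hr
        two := h2
        nd := hQ
        htr := hfB
        dim := hdim 3 h4
        lin := fun k hk hl => hM k hk (hsemi k fun c => ⟨c, hl c⟩)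
        notSemi := ⟨g, hg, fun hs => hgS (hsemi g hs)⟩ }
    rcases Nat.lt_or_ge (Module.finrank (FK hK) (ι → F)) 4 with ha | ha
    · have h3 : Module.finrank (FK hK) (ι → F) = 3 := le_antisymm (by omega) (hdim 3 h4)
      have hr2' : r ≠ 2 := hcase.resolve_right fun h5 => by have := hdim 4 h5; omega
      rcases eq_or_ne r 3 with hr3 | hr3
      · exact omega_le_cubic H h3 (hfr.trans hr3)
      · refine H.omega_le_three h3 ?_
        rw [hfr]
        by_contra hlt
        interval_cases r <;> first | omega | exact absurd hr (by decide)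
    · exact H.omega_le ha

/-- The degree three field normalisers of `Ω₉` are maximal. -/
theorem isMaximalIn_field_nine {F : Type*} [Field F] [Fintype F] (hodd : Odd (Fintype.card F))
    (K : Subalgebra F (Matrix (Unit ⊕ (Fin 4 ⊕ Fin 4)) (Unit ⊕ (Fin 4 ⊕ Fin 4)) F))
    (hK : Cfsg.Geo.IsFieldSubalgebra 3 K)
    (hsa : Cfsg.Geo.IsSelfAdjointFor (QuadraticMap.polar (Cfsg.quadFormOdd 4 F)) K) :
    Cfsg.Geo.IsMaximalIn (Cfsg.Geo.omegaGL (Cfsg.quadFormOdd 4 F))
      (Cfsg.Geo.subalgebraNormalizer K ⊓ Cfsg.Geo.omegaGL (Cfsg.quadFormOdd 4 F)) := by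
  have h2 : (2 : F) ≠ 0 := Ring.two_ne_zero fun hc => by
    have := FiniteField.even_card_of_char_two hc
    rw [Nat.odd_iff] at hodd
    omega
  exact field_maximal_odd (qOdd 4 F) (coe_qOdd 4) (qOdd_nondegenerate 4 h2) h2 Nat.prime_three hK
    (by simp) (Or.inl (by norm_num)) hsa

end Cfsg.Agent.H1.OmegaNine
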